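import Cfsg.Agent.Lib.Helper81.FCZ.Defs

/-!
# FCZ (S3359/S4291) package [COP]: `|C_G(S)|` is prime to 15 and not divisible by 4.
-/

set_option autoImplicit false

namespace Cfsg.Agent.Lib.Helper94.FCZ

open Cfsg.Agent.Lib.Helper81.FCZ

universe u

theorem pkgCop : PkgCop.{u} := by
  intro hOrd G _ _ S hInv hComm ⟨e⟩ hSC
  obtain ⟨⟨t3, h3⟩, ⟨t4, h4⟩, ⟨t5, h5⟩⟩ := hOrd
  have hS : ∀ t : Gam, ∃ s : G, s ∈ S ∧ orderOf s = orderOf t := by
    intro t
    refine ⟨((e.symm t : S) : G), (e.symm t).2, ?_⟩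
    rw [Subgroup.orderOf_coe, MulEquiv.orderOf_eq]
  obtain ⟨C, hC⟩ : ∃ C : Subgroup G, C = Subgroup.centralizer (S : Set G) := ⟨_, rfl⟩
  rw [← hC] at hSC ⊢
  have hcomm : ∀ c ∈ C, ∀ s ∈ S, c * s = s * c := by
    intro c hc s hs
    rw [hC] at hc
    exact (Subgroup.mem_centralizer_iff.1 hc s hs).symm
  have hSC2 : ∀ x ∈ S ⊓ C, x * x = 1 := by
    intro x hx
    have h1 : (⟨x, hx⟩ : ↥(S ⊓ C)) ^ Nat.card ↥(S ⊓ C) = 1 := pow_card_eq_one'
    rw [hSC] at h1
    have h2 := congrArg Subtype.val h1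
    simpa [pow_two] using h2
  have hprime : ∀ p : ℕ, p.Prime → p ≠ 2 → (∃ s ∈ S, orderOf s = p) → ¬ p ∣ Nat.card C := by
    intro p hp hp2 ⟨s, hs, hsp⟩ hdvd
    have hpf : Fact p.Prime := Fact.mk hp
    obtain ⟨c, hc⟩ := exists_prime_orderOf_dvd_card' p hdvd
    have hc' : orderOf (c : G) = p := by
      rw [Subgroup.orderOf_coe]
      exact hc
    have hmem : s ∈ Subgroup.zpowers (c : G) :=
      hComm p (c : G) s hp hc' hsp (hcomm c c.2 s hs)
    have hsC : s ∈ C := (Subgroup.zpowers_le.2 c.2) hmem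
    have h1 := hSC2 s ⟨hs, hsC⟩
    have h2 : orderOf s ∣ 2 := orderOf_dvd_of_pow_eq_one (by rw [pow_two]; exact h1)
    rw [hsp] at h2
    exact hp2 ((Nat.prime_dvd_prime_iff_eq hp Nat.prime_two).1 h2)
  obtain ⟨s3, hs3, ho3⟩ := hS t3
  obtain ⟨s4, hs4, ho4⟩ := hS t4
  obtain ⟨s5, hs5, ho5⟩ := hS t5
  rw [h3] at ho3
  rw [h4] at ho4
  rw [h5] at ho5
  constructor
  · have c3 : Nat.Coprime (Nat.card C) 3 :=
      ((Nat.Prime.coprime_iff_not_dvd Nat.prime_three).2
        (hprime 3 Nat.prime_three (by norm_num) ⟨s3, hs3, ho3⟩)).symm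
    have c5 : Nat.Coprime (Nat.card C) 5 :=
      ((Nat.Prime.coprime_iff_not_dvd Nat.prime_five).2
        (hprime 5 Nat.prime_five (by norm_num) ⟨s5, hs5, ho5⟩)).symm
    exact Nat.Coprime.mul_right c3 c5
  · intro h4dvd
    obtain ⟨A, hA⟩ := Sylow.exists_subgroup_card_pow_prime (G := ↥C) 2 (n := 2)
      (by simpa using h4dvd)
    have hex : ∃ c : ↥C, c ∈ A ∧ (c : G) * (c : G) ≠ 1 := by
      by_contra hno
      simp only [not_exists, not_and, not_not] at hno
      have hAne : A ≠ ⊥ := by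
        intro hb
        rw [hb, Subgroup.card_bot] at hA
        norm_num at hA
      obtain ⟨a0, ha01⟩ := (Subgroup.ne_bot_iff_exists_ne_one).1 hAne
      have ha0A : (a0 : ↥C) ∈ A := a0.2
      have hle : A ≤ Subgroup.zpowers (a0 : ↥C) := by
        intro a ha
        by_cases h1 : a = 1
        · rw [h1]
          exact one_mem _
        · have h5 : (a : G) = ((a0 : ↥C) : G) := by
            apply hInv _ _ _ _ (hno a ha) (hno _ ha0A)
            · intro h
              exact h1 (Subtype.ext h)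
            · intro h
              apply ha01
              apply Subtype.ext
              apply Subtype.ext
              exact h
          have h6 : a = (a0 : ↥C) := Subtype.ext h5
          rw [h6]
          exact Subgroup.mem_zpowers _
      have hcard := Subgroup.card_dvd_of_le hle
      rw [hA, Nat.card_zpowers] at hcard
      have ho : orderOf (a0 : ↥C) ∣ 2 :=
        orderOf_dvd_of_pow_eq_one (by rw [pow_two]; exact Subtype.ext (hno _ ha0A))
      have h7 := Nat.dvd_trans hcard ho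
      norm_num at h7
    obtain ⟨c, hcA, hc2⟩ := hex
    have hc4 : ((c : G) * (c : G)) * ((c : G) * (c : G)) = 1 := by
      have h1 : (⟨c, hcA⟩ : ↥A) ^ Nat.card ↥A = 1 := pow_card_eq_one'
      rw [hA] at h1
      have h2 := congrArg (fun x : ↥A => (((x : ↥C) : G))) h1
      simp only [Subgroup.coe_pow, Subgroup.coe_one] at h2
      rw [← h2]
      norm_num [pow_succ, mul_assoc]
    have hs4' : (s4 * s4) * (s4 * s4) = 1 := by
      have h1 := pow_orderOf_eq_one s4
      rw [ho4] at h1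
      rw [← h1]
      simp [pow_succ, mul_assoc]
    have hs2 : s4 * s4 ≠ 1 := by
      intro h
      have h1 : orderOf s4 ∣ 2 := orderOf_dvd_of_pow_eq_one (by rw [pow_two]; exact h)
      rw [ho4] at h1
      norm_num at h1
    have heq : (c : G) * (c : G) = s4 * s4 := hInv _ _ hc2 hs2 hc4 hs4'
    have hcs : (c : G) * s4 = s4 * (c : G) := hcomm c c.2 s4 hs4
    have hcs' : s4⁻¹ * (c : G) = (c : G) * s4⁻¹ :=
      ((show Commute (c : G) s4 from hcs).inv_right).eq.symm
    have ht : ((c : G) * s4⁻¹) * ((c : G) * s4⁻¹) = 1 := by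
      calc ((c : G) * s4⁻¹) * ((c : G) * s4⁻¹)
          = (c : G) * (s4⁻¹ * (c : G)) * s4⁻¹ := by group
        _ = (c : G) * ((c : G) * s4⁻¹) * s4⁻¹ := by rw [hcs']
        _ = ((c : G) * (c : G)) * (s4 * s4)⁻¹ := by group
        _ = 1 := by rw [heq, mul_inv_cancel]
    have hcS : (c : G) ∈ S := by
      by_cases h1 : (c : G) * s4⁻¹ = 1
      · have h5 : (c : G) = s4 := by
          rw [mul_inv_eq_one] at h1
          exact h1
        rw [h5]
        exact hs4
      · have h5 : (c : G) * s4⁻¹ = s4 * s4 := hInv _ _ h1 hs2 ht hs4'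
        have h6 : (c : G) = s4 * s4 * s4 := by
          rw [← h5]
          group
        rw [h6]
        exact S.mul_mem (S.mul_mem hs4 hs4) hs4
    exact hc2 (hSC2 (c : G) ⟨hcS, c.2⟩)

end Cfsg.Agent.Lib.Helper94.FCZ
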