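import Cfsg.Agent.Lib.Helper81.FCZ.Defs

/-!
# FCZ (S3359/S4291) package [GLUE]
-/

set_option autoImplicit false

namespace Cfsg.Agent.Lib.Helper94.FCZ

open Cfsg.Agent.Lib.Helper81.FCZ

universe u

theorem relIndex_mul_card_of_le {G : Type u} [Group G] {M C : Subgroup G} (h : M ≤ C) :
    M.relIndex C * Nat.card M = Nat.card C := by
  have h1 := Subgroup.card_mul_index (M.subgroupOf C)
  rw [Nat.card_congr (Subgroup.subgroupOfEquivOfLe h).toEquiv] at h1
  rw [Subgroup.relIndex, mul_comm]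
  exact h1

theorem pkgGlue : PkgGlue.{u} := by
  intro G _ _ S C M hSC hMC hM hidx
  have hbot : S ⊓ M = ⊥ := by
    have h1 : Nat.card ↥(S ⊓ M) ∣ 2 := by
      rw [← hSC]
      exact Subgroup.card_dvd_of_le (inf_le_inf_left S hMC)
    have h2 : Nat.card ↥(S ⊓ M) ∣ Nat.card M := Subgroup.card_dvd_of_le inf_le_right
    have h3 : Nat.card ↥(S ⊓ M) = 1 :=
      Nat.Coprime.eq_one_of_dvd (Nat.Coprime.coprime_dvd_left h2 hM) h1
    exact Subgroup.card_eq_one.1 h3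
  refine ⟨le_antisymm (sup_le_sup_left hMC S) (sup_le le_sup_left ?_), hbot⟩
  have hZM : (S ⊓ C) ⊔ M = C := by
    apply Subgroup.eq_of_le_of_card_ge (sup_le inf_le_right hMC)
    have h1 : Nat.card M ∣ Nat.card ↥((S ⊓ C) ⊔ M) := Subgroup.card_dvd_of_le le_sup_right
    have h2 : 2 ∣ Nat.card ↥((S ⊓ C) ⊔ M) := by
      rw [← hSC]
      exact Subgroup.card_dvd_of_le le_sup_left
    have h3 : Nat.card M * 2 ∣ Nat.card ↥((S ⊓ C) ⊔ M) :=
      Nat.Coprime.mul_dvd_of_dvd_of_dvd hM h1 h2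
    have h4 : M.relIndex C * Nat.card M = Nat.card C := relIndex_mul_card_of_le hMC
    have hpos : 0 < Nat.card ↥((S ⊓ C) ⊔ M) := Nat.card_pos
    have h5 := Nat.le_of_dvd hpos h3
    have h6 : M.relIndex C * Nat.card M ≤ 2 * Nat.card M := Nat.mul_le_mul_right _ hidx
    omega
  calc C = (S ⊓ C) ⊔ M := hZM.symm
    _ ≤ S ⊔ M := sup_le_sup_right inf_le_left M

end Cfsg.Agent.Lib.Helper94.FCZ
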