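import Cfsg.Agent.Lib.Helper81.FCZ.Defs

/-!
# FCZ (S3359/S4291) package [IDX]
-/

set_option autoImplicit false

namespace Cfsg.Agent.Lib.Helper94.FCZ

open Cfsg.Agent.Lib.Helper81.FCZ

universe u

theorem pkgIdx : PkgIdx.{u} := by
  intro G _ _ S ψ hS
  have hle : alternatingGroup (Fin 5) ≤ ψ.range := by
    rw [← hS]
    exact Subgroup.map_le_range ψ S
  have hidx : (alternatingGroup (Fin 5)).index = 2 := alternatingGroup.index_eq_two
  have hmul := Subgroup.relIndex_mul_index hle
  rw [hidx] at hmul
  have hdvd : (alternatingGroup (Fin 5)).relIndex ψ.range ∣ 2 := Dvd.intro _ hmul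
  have hcases : (alternatingGroup (Fin 5)).relIndex ψ.range = 1 ∨
      (alternatingGroup (Fin 5)).relIndex ψ.range = 2 :=
    (Nat.dvd_prime Nat.prime_two).1 hdvd
  have hcomap : S ⊔ ψ.ker = (alternatingGroup (Fin 5)).comap ψ := by
    rw [← hS, Subgroup.comap_map_eq]
  constructor
  · rw [hcomap, Subgroup.index_comap]
    exact hcases
  · rcases hcases with h | h
    · left
      exact le_antisymm (Subgroup.relIndex_eq_one.1 h) hle
    · right
      rw [h] at hmul
      have h1 : ψ.range.index = 1 := by omega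
      exact Subgroup.index_eq_one.1 h1

end Cfsg.Agent.Lib.Helper94.FCZ
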